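import Cfsg.Agent.H794.GUT.Preg
import Cfsg.Agent.H451.Sl.Norm

/-!
# Linear characters trivial on a centralizer in `GL_k(E)`, in terms of columns (S4537, helper794 for helper623)

* `pow_eq_one_of_mcol` : if `α ∘ det` is trivial on the centralizer of `A` and `A` has a Jordan block of size `i + 1` at
  the eigenvalue `y`, then `α ^ (i + 1) = 1`.
-/

set_option autoImplicit false

open Module Polynomial

namespace Cfsg.Agent.H794.GUT

open Cfsg Cfsg.Agent.H615.GU Cfsg.Agent.H624.Sl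

universe u v

section beven

variable {F : Type u} [Field F] [Finite F] {K : Type v} [Field K] [Algebra F K] [Algebra.IsAlgebraic F K] {k : ℕ}

theorem sl_kd_eq (A : GL (Fin k) F) (y : Kˣ) (j : ℕ) :
    H624.Sl.kd A ((mp F y) ^ j) = (mp F y).natDegree * ∑ i ∈ Finset.range j, mcol (A : Matrix (Fin k) (Fin k) F) (y : K) i := by
  have h1 := kd_eq (Matrix.toLin' (A : Matrix (Fin k) (Fin k) F)) (mp_monic y) (mp_irr y) j
  rw [mcol_eq]
  simp_rw [col_apply _ (mp_monic y) (mp_irr y)]
  exact h1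

/-- **[B-even]** -/
theorem pow_eq_one_of_mcol (A : GL (Fin k) F) (α : Fˣ →* ℂˣ)
    (h : Subgroup.centralizer ({A} : Set (GL (Fin k) F)) ≤ (dch k α).ker) (y : Kˣ) (i : ℕ)
    (hi : mcol (A : Matrix (Fin k) (Fin k) F) (y : K) i ≠ mcol (A : Matrix (Fin k) (Fin k) F) (y : K) (i + 1))
    (w : Fˣ) : α w ^ (i + 1) = 1 := by
  refine H451.Sl.pow_eq_one_of_centralizer_le A α h (mp F y) (mp_irr y) i ?_ w
  rw [sl_kd_eq, sl_kd_eq, sl_kd_eq, Finset.sum_range_succ, Finset.sum_range_succ]
  intro h1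
  apply hi
  have h2 := (mp_irr (F := F) y).natDegree_pos
  have h3 : (mp F y).natDegree * mcol (A : Matrix (Fin k) (Fin k) F) (y : K) i =
      (mp F y).natDegree * mcol (A : Matrix (Fin k) (Fin k) F) (y : K) (i + 1) := by nlinarith
  exact Nat.eq_of_mul_eq_mul_left h2 h3

end beven

end Cfsg.Agent.H794.GUT
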