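import Cfsg.Agent.H794.GUT.Fin
import Cfsg.Agent.H531.GU.Eig
import Mathlib.LinearAlgebra.Matrix.Charpoly.Eigs

/-!
# `p`-regular types (S4537, helper794)

* `splits_of_tdeg` : the characteristic polynomial of a matrix splits over `K` if its type over `K` has full degree;
* `preg_matrix` : an invertible matrix with eigenvalues in `K` has order prime to `p` if and only if its eigenvalues have
  order prime to `p`;
* `pregT_iff` : `PregT Q p (T.typ g) ↔ (orderOf g).Coprime p` for type data given by the columns of matrices.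
-/

set_option autoImplicit false

open Module Polynomial

namespace Cfsg.Agent.H794.GUT

open Cfsg Cfsg.Agent.H615.GU

universe u v w

section preg

variable {F : Type u} [Field F] {K : Type v} [Field K] [Algebra F K] {Q : ℤ} {n p : ℕ}

/-- the characteristic polynomial splits if the type has full degree -/
theorem splits_of_tdeg [Finite K] (A : Matrix (Fin n) (Fin n) F) {lam : Ty (Orb K Q)}
    (hlam : ∀ y : Kˣ, lam (Quotient.mk (orbSetoid K Q) y) = mcol A (y : K)) (hdeg : tdeg (dOrb K Q) lam = n) :
    (A.charpoly.map (algebraMap F K)).Splits := by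
  classical
  have := Fintype.ofFinite K
  have := Fintype.ofFinite Kˣ
  have hP : (A.charpoly.map (algebraMap F K)).natDegree = n := by
    rw [natDegree_map, Matrix.charpoly_natDegree_eq_dim, Fintype.card_fin]
  rw [splits_iff_card_roots]
  refine le_antisymm (card_roots' _) ?_
  rw [hP]
  have h1 : n = ∑ y : Kˣ, (A.charpoly.map (algebraMap F K)).roots.count (y : K) := by
    conv_lhs => rw [← hdeg]
    rw [tdeg, Finsupp.sum_fintype _ _ (fun i => by rw [Col.size_zero, mul_zero]),
      ← Finset.sum_fiberwise_of_maps_to (s := (Finset.univ : Finset Kˣ)) (t := (Finset.univ : Finset (Orb K Q)))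
        (g := fun y => Quotient.mk (orbSetoid K Q) y) (fun _ _ => Finset.mem_univ _)]
    refine Finset.sum_congr rfl fun o _ => ?_
    have h2 : ∀ y ∈ Finset.univ.filter (fun y : Kˣ => Quotient.mk (orbSetoid K Q) y = o),
        (A.charpoly.map (algebraMap F K)).roots.count (y : K) = (lam o).size := by
      intro y hy
      rw [← (Finset.mem_filter.1 hy).2, hlam, H531.GU.size_mcol, count_roots]
    rw [Finset.sum_congr rfl h2, Finset.sum_const, smul_eq_mul, dOrb, Nat.card_eq_fintype_card, Fintype.card_subtype]
  have h3 : ∑ y : Kˣ, (A.charpoly.map (algebraMap F K)).roots.count (y : K) ≤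
      ∑ y : K, (A.charpoly.map (algebraMap F K)).roots.count y := by
    rw [← Finset.sum_image (s := (Finset.univ : Finset Kˣ)) (g := fun y : Kˣ => (y : K))
      (f := fun z : K => (A.charpoly.map (algebraMap F K)).roots.count z) (fun a _ b _ h => Units.ext h)]
    exact Finset.sum_le_sum_of_subset (Finset.subset_univ _)
  rw [Multiset.sum_count_eq_card (fun a _ => Finset.mem_univ a)] at h3
  omega

theorem mcol_ne_zero_iff (A : Matrix (Fin n) (Fin n) F) (y : K) :
    mcol A y ≠ 0 ↔ (A.charpoly.map (algebraMap F K)).IsRoot y := by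
  have h0 : A.charpoly.map (algebraMap F K) ≠ 0 := ((Matrix.charpoly_monic A).map _).ne_zero
  rw [← rootMultiplicity_pos h0, ← H531.GU.size_mcol]
  constructor
  · exact size_pos
  · rintro h1 h2
    rw [h2, Col.size_zero] at h1
    exact lt_irrefl _ h1

/-- the eigenvalues of a matrix of finite order -/
theorem pow_eq_one_of_root (A : GL (Fin n) F) {o : ℕ} (hA : A ^ o = 1) {y : K}
    (hy : ((A : Matrix (Fin n) (Fin n) F).charpoly.map (algebraMap F K)).IsRoot y) : y ^ o = 1 := by
  rw [← Matrix.charpoly_map, ← Matrix.mem_spectrum_iff_isRoot_charpoly] at hy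
  have h1 := spectrum.pow_mem_pow _ o hy
  have h2 : ((A : Matrix (Fin n) (Fin n) F).map (algebraMap F K)) ^ o = 1 := by
    have h3 := congrArg (fun B : GL (Fin n) F => (B : Matrix (Fin n) (Fin n) F).map (algebraMap F K)) hA
    simpa [Matrix.map_pow] using h3
  rw [h2] at h1
  have h4 : Nontrivial (Matrix (Fin n) (Fin n) K) := by
    by_contra hcon
    rw [not_nontrivial_iff_subsingleton] at hcon
    rw [spectrum.of_subsingleton] at h1
    exact h1
  rw [spectrum.one_eq] at h1
  exact h1

/-- the order of a matrix and the orders of its eigenvalues -/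
theorem preg_matrix [Finite K] (hp : p.Prime) (hpF : (p : F) ≠ 0) (A : GL (Fin n) F)
    (hs : ((A : Matrix (Fin n) (Fin n) F).charpoly.map (algebraMap F K)).Splits) :
    (∀ y : Kˣ, mcol (A : Matrix (Fin n) (Fin n) F) (y : K) ≠ 0 → (orderOf y).Coprime p) ↔ (orderOf A).Coprime p := by
  classical
  have hfF : Finite F := Finite.of_injective _ (algebraMap F K).injective
  set P := (A : Matrix (Fin n) (Fin n) F).charpoly.map (algebraMap F K) with hP
  constructor
  · intro h
    by_contra hcon
    have hdvd : p ∣ orderOf A := by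
      rw [Nat.coprime_comm, hp.coprime_iff_not_dvd, not_not] at hcon
      exact hcon
    have ho : 0 < orderOf A := orderOf_pos A
    obtain ⟨a, m, hm, ham⟩ := Nat.exists_eq_pow_mul_and_not_dvd ho.ne' p hp.ne_one
    -- the roots are `m`-th roots of unity
    have hroot : ∀ y ∈ P.roots, X - C y ∣ (X ^ m - 1 : K[X]) := by
      intro y hy
      have hy1 := isRoot_of_mem_roots hy
      have hy2 := pow_eq_one_of_root A (pow_orderOf_eq_one A) hy1
      have hy0 : y ≠ 0 := by
        rintro rfl
        rw [zero_pow ho.ne'] at hy2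
        exact zero_ne_one hy2
      have hc := h (Units.mk0 y hy0) ((mcol_ne_zero_iff _ _).2 hy1)
      have hd : orderOf (Units.mk0 y hy0) ∣ p ^ a * m := by
        rw [← ham]
        exact orderOf_dvd_of_pow_eq_one (Units.ext (by rw [Units.val_pow_eq_pow_val, Units.val_mk0, hy2, Units.val_one]))
      have hd2 : orderOf (Units.mk0 y hy0) ∣ m := (Nat.Coprime.pow_right a hc).dvd_of_dvd_mul_left hd
      have hd3 := congrArg Units.val (orderOf_dvd_iff_pow_eq_one.1 hd2)
      rw [Units.val_pow_eq_pow_val, Units.val_mk0, Units.val_one] at hd3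
      rw [dvd_iff_isRoot, IsRoot.def, eval_sub, eval_pow, eval_X, eval_one, hd3, sub_self]
    have hPdvd : P ∣ (X ^ m - 1) ^ Multiset.card P.roots := by
      have hPm : P.Monic := (Matrix.charpoly_monic _).map _
      have h5 : ∀ s : Multiset K, (∀ y ∈ s, X - C y ∣ (X ^ m - 1 : K[X])) →
          (s.map fun y => X - C y).prod ∣ (X ^ m - 1) ^ Multiset.card s := by
        intro s
        induction s using Multiset.induction_on with
        | empty => intro _; simp
        | cons a s ih =>
          intro hs
          rw [Multiset.map_cons, Multiset.prod_cons, Multiset.card_cons, pow_succ, mul_comm]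
          exact mul_dvd_mul (ih fun y hy => hs y (Multiset.mem_cons_of_mem hy)) (hs a (Multiset.mem_cons_self _ _))
      have h6 := h5 P.roots hroot
      rwa [← hs.eq_prod_roots_of_monic hPm] at h6
    set r := Multiset.card P.roots
    -- the matrix `A ^ m` is unipotent
    have hnil : ((A : Matrix (Fin n) (Fin n) F) ^ m - 1) ^ r = 0 := by
      have h7 : aeval ((A : Matrix (Fin n) (Fin n) F).map (algebraMap F K)) ((X ^ m - 1 : K[X]) ^ r) = 0 := by
        obtain ⟨c, hc⟩ := hPdvd
        rw [hc, map_mul, hP, ← Matrix.charpoly_map, Matrix.aeval_self_charpoly, zero_mul]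
      rw [map_pow, map_sub, map_pow, aeval_X, map_one] at h7
      have h8 : Function.Injective (fun M : Matrix (Fin n) (Fin n) F => M.map (algebraMap F K)) :=
        Matrix.map_injective (algebraMap F K).injective
      apply h8
      change (((A : Matrix (Fin n) (Fin n) F) ^ m - 1) ^ r).map (algebraMap F K) = (0 : Matrix (Fin n) (Fin n) F).map _
      rw [Matrix.map_zero _ (map_zero _), ← h7]
      change (algebraMap F K).mapMatrix _ = _
      rw [map_pow, map_sub, map_pow, map_one]
      rfl
    obtain ⟨c, hc⟩ := CharP.exists F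
    have hcp : Fact c.Prime := ⟨CharP.char_is_prime F c⟩
    have hcM : CharP (Matrix (Fin n) (Fin n) F) c ∨ n = 0 := by
      rcases Nat.eq_zero_or_pos n with h9 | h9
      · exact Or.inr h9
      · have : Nonempty (Fin n) := ⟨⟨0, h9⟩⟩
        exact Or.inl (Matrix.charP c)
    have hone : A ^ (m * c ^ r) = 1 := by
      rcases hcM with hcM | h9
      · apply Units.ext
        rw [Units.val_pow_eq_pow_val, Units.val_one, pow_mul, ← sub_eq_zero]
        have h10 : r ≤ c ^ r := (Nat.lt_pow_self hcp.out.one_lt).le
        have h11 : ((A : Matrix (Fin n) (Fin n) F) ^ m - 1) ^ c ^ r = 0 := by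
          rw [← Nat.sub_add_cancel h10, pow_add, hnil, mul_zero]
        rw [sub_pow_char_pow_of_commute _ _ (Commute.one_right _), one_pow] at h11
        exact h11
      · subst h9
        exact Subsingleton.elim _ _
    have hdiv := orderOf_dvd_of_pow_eq_one hone
    have ha : a ≠ 0 := by
      rintro rfl
      rw [pow_zero, one_mul] at ham
      exact hm (ham ▸ hdvd)
    have h12 : p ∣ m * c ^ r := hdvd.trans hdiv
    rcases hp.dvd_mul.1 h12 with h13 | h13
    · exact hm h13
    · have h14 := (Nat.prime_dvd_prime_iff_eq hp hcp.out).1 (hp.dvd_of_dvd_pow h13)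
      apply hpF
      rw [h14, CharP.cast_eq_zero]
  · intro h y hy
    have h1 := pow_eq_one_of_root A (pow_orderOf_eq_one A) ((mcol_ne_zero_iff _ _).1 hy)
    have h2 : orderOf y ∣ orderOf A :=
      orderOf_dvd_of_pow_eq_one (Units.ext (by rw [Units.val_pow_eq_pow_val, h1, Units.val_one]))
    exact Nat.Coprime.coprime_dvd_left h2 h

/-- **`p`-regular elements and types.** -/
theorem pregT_iff [Finite K] {G : Type w} [Group G] (T : TypeData (dOrb K Q) Q G n) (ρ : G →* GL (Fin n) F)
    (hρ : Function.Injective ρ)
    (hT : ∀ g (y : Kˣ), T.typ g (Quotient.mk (orbSetoid K Q) y) = mcol (ρ g : Matrix (Fin n) (Fin n) F) (y : K))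
    (hp : p.Prime) (hpF : (p : F) ≠ 0) (g : G) : PregT Q p (T.typ g) ↔ (orderOf g).Coprime p := by
  rw [← orderOf_injective ρ hρ g, ← preg_matrix (K := K) hp hpF (ρ g) (splits_of_tdeg _ (hT g) (T.deg g))]
  exact forall_congr' fun y => by rw [hT]

end preg

end Cfsg.Agent.H794.GUT
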